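import Cfsg.Agent.H761.Blocks
import Cfsg.Agent.H763.OverS
import Cfsg.Agent.H802.FusCentric
import Cfsg.Agent.H802.SylIn
import Cfsg.Agent.H802.FusGroup
set_option linter.all false

-- part: H761/Plane
section
/-!
# The affine plane inside `p` blocks (helper761)

Blocks indexed by `ZMod p ⊕ J`. The first `p` blocks form the plane `ZMod p × ZMod p`.

* `V1 ι` : the translations of the plane times the base group of the other blocks, self-centralising (`cent_V1`);
* `R1 ι` : the base group and the cyclic shift of the first `p` blocks;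
* `tt a` : `(x, z) ↦ (a⁻¹ x, a z)`, a product of `xx b` : `(x, z) ↦ (x, z + b x)` and their conjugates under the
  rotation `ww`.
-/

set_option autoImplicit false

namespace Cfsg.Agent.H761

open Equiv Equiv.Perm Cfsg.Agent.H761.Frame Cfsg.Agent.H802

variable {J α : Type*} {p : ℕ}

/-- translations of the plane -/
def tp (w : ZMod p × ZMod p) : Perm (ZMod p × ZMod p) := Equiv.addRight w

def xx (b : ZMod p) : Perm (ZMod p × ZMod p) := Equiv.prodShear (Equiv.refl _) (fun x => Equiv.addRight (b * x))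

def yy (b : ZMod p) : Perm (ZMod p × ZMod p) where
  toFun x := (x.1 + b * x.2, x.2)
  invFun x := (x.1 - b * x.2, x.2)
  left_inv x := by simp
  right_inv x := by simp

def ww : Perm (ZMod p × ZMod p) where
  toFun x := (-x.2, x.1)
  invFun x := (x.2, -x.1)
  left_inv x := by simp
  right_inv x := by simp

def tt (a : (ZMod p)ˣ) : Perm (ZMod p × ZMod p) :=
  Equiv.prodCongr (Units.mulLeft a⁻¹) (Units.mulLeft a)

@[simp] theorem tp_apply (w x : ZMod p × ZMod p) : tp w x = x + w := rfl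
@[simp] theorem xx_apply (b : ZMod p) (x : ZMod p × ZMod p) : xx b x = (x.1, x.2 + b * x.1) := rfl
@[simp] theorem yy_apply (b : ZMod p) (x : ZMod p × ZMod p) : yy b x = (x.1 + b * x.2, x.2) := rfl
@[simp] theorem ww_apply (x : ZMod p × ZMod p) : ww x = (-x.2, x.1) := rfl
@[simp] theorem ww_inv_apply (x : ZMod p × ZMod p) : (ww⁻¹ : Perm (ZMod p × ZMod p)) x = (x.2, -x.1) := rfl
@[simp] theorem tt_apply (a : (ZMod p)ˣ) (x : ZMod p × ZMod p) :
    tt a x = (((a⁻¹ : (ZMod p)ˣ) : ZMod p) * x.1, (a : ZMod p) * x.2) := rfl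

theorem yy_eq (b : ZMod p) : yy b = ww * xx (-b) * ww⁻¹ := by
  ext1 x
  simp only [yy_apply, mul_apply, ww_inv_apply, xx_apply, ww_apply]
  ext
  · show x.1 + b * x.2 = -(-x.1 + -b * x.2)
    ring
  · rfl

theorem ww_eq : (ww : Perm (ZMod p × ZMod p)) = xx 1 * yy (-1) * xx 1 := by
  ext1 x
  simp only [yy_apply, mul_apply, xx_apply, ww_apply]
  ext
  · show -x.2 = x.1 + -1 * (x.2 + 1 * x.1)
    ring
  · show x.1 = x.2 + 1 * x.1 + 1 * (x.1 + -1 * (x.2 + 1 * x.1))
    ring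

theorem tt_eq (a : (ZMod p)ˣ) : tt a = xx a * yy (-((a⁻¹ : (ZMod p)ˣ) : ZMod p)) * xx a * ww⁻¹ := by
  have h : ((a⁻¹ : (ZMod p)ˣ) : ZMod p) * (a : ZMod p) = 1 := by simp
  ext1 x
  simp only [yy_apply, mul_apply, xx_apply, tt_apply, ww_inv_apply]
  ext
  · show ((a⁻¹ : (ZMod p)ˣ) : ZMod p) * x.1 = x.2 + -((a⁻¹ : (ZMod p)ˣ) : ZMod p) * (-x.1 + a * x.2)
    linear_combination x.2 * h
  · show (a : ZMod p) * x.2 = -x.1 + a * x.2 + a * (x.2 + -((a⁻¹ : (ZMod p)ˣ) : ZMod p) * (-x.1 + a * x.2))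
    linear_combination (a * x.2 - x.1) * h

theorem conj_tp {g : Perm (ZMod p × ZMod p)} (hg : ∀ x y, g (x + y) = g x + g y) (w : ZMod p × ZMod p) :
    g * tp w * g⁻¹ = tp (g w) := by
  rw [mul_inv_eq_iff_eq_mul]
  ext1 x
  simp [hg]

theorem xx_add (b : ZMod p) (x y : ZMod p × ZMod p) : xx b (x + y) = xx b x + xx b y := by
  ext
  · rfl
  · show x.2 + y.2 + b * (x.1 + y.1) = x.2 + b * x.1 + (y.2 + b * y.1)
    ring

theorem ww_add (x y : ZMod p × ZMod p) : ww (x + y) = ww x + ww y := by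
  ext
  · show -(x.2 + y.2) = -x.2 + -y.2
    ring
  · rfl

theorem tt_add (a : (ZMod p)ˣ) (x y : ZMod p × ZMod p) : tt a (x + y) = tt a x + tt a y := by
  ext
  · show ((a⁻¹ : (ZMod p)ˣ) : ZMod p) * (x.1 + y.1) = _ * x.1 + _ * y.1
    ring
  · show (a : ZMod p) * (x.2 + y.2) = _ * x.2 + _ * y.2
    ring

/-- the plane in the first `p` blocks -/
def kap (J : Type*) (p : ℕ) : ZMod p × ZMod p ↪ (ZMod p ⊕ J) × ZMod p :=
  ⟨fun x => (Sum.inl x.1, x.2), by
    rintro ⟨a, b⟩ ⟨c, d⟩ h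
    simpa using h⟩

theorem kap_apply (x : ZMod p × ZMod p) : kap J p x = (Sum.inl x.1, x.2) := rfl

theorem not_mem_kap (j : J) (z : ZMod p) : ((Sum.inr j : ZMod p ⊕ J), z) ∉ Set.range (kap J p) := by
  rintro ⟨⟨a, b⟩, h⟩
  exact Sum.inl_ne_inr (congrArg Prod.fst h)

/-- the shifts of the first `p` blocks -/
def sh (J : Type*) {p : ℕ} (y : ZMod p) : Perm (ZMod p ⊕ J) := Equiv.sumCongr (Equiv.addRight y) (Equiv.refl J)

/-- the multiplications of the first `p` blocks -/
def mu (J : Type*) {p : ℕ} (a : (ZMod p)ˣ) : Perm (ZMod p ⊕ J) := Equiv.sumCongr (Units.mulLeft a) (Equiv.refl J)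

@[simp] theorem sh_inl (y x : ZMod p) : sh J y (Sum.inl x) = Sum.inl (x + y) := rfl
@[simp] theorem sh_inr (y : ZMod p) (j : J) : sh J y (Sum.inr j) = Sum.inr j := rfl
@[simp] theorem mu_inl (a : (ZMod p)ˣ) (x : ZMod p) : mu J a (Sum.inl x) = Sum.inl (a * x) := rfl
@[simp] theorem mu_inr (a : (ZMod p)ˣ) (j : J) : mu J a (Sum.inr j) = Sum.inr j := rfl

theorem sh_add (x y : ZMod p) : sh J (x + y) = sh J x * sh J y := by
  ext1 i
  rcases i with i | i
  · rw [mul_apply, sh_inl, sh_inl, sh_inl, add_assoc, add_comm y]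
  · rfl

theorem sh_zero : sh J (0 : ZMod p) = 1 := by
  ext1 i
  rcases i with i | i
  · rw [sh_inl, add_zero]; rfl
  · rfl

/-- the group of shifts -/
def shQ (J : Type*) (p : ℕ) : Subgroup (Perm (ZMod p ⊕ J)) where
  carrier := Set.range (sh J)
  mul_mem' := by
    rintro _ _ ⟨x, rfl⟩ ⟨y, rfl⟩
    exact ⟨x + y, sh_add x y⟩
  one_mem' := ⟨0, sh_zero⟩
  inv_mem' := by
    rintro _ ⟨x, rfl⟩
    exact ⟨-x, by rw [eq_inv_iff_mul_eq_one, ← sh_add, neg_add_cancel, sh_zero]⟩

theorem sh_mem (y : ZMod p) : sh J y ∈ shQ J p := ⟨y, rfl⟩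

theorem sh_nsmul (y : ZMod p) (k : ℕ) : sh J (k • y) = sh J y ^ k := by
  induction k with
  | zero => rw [zero_smul, sh_zero, pow_zero]
  | succ k ih => rw [succ_nsmul, sh_add, ih, pow_succ]

theorem isPGroup_shQ : IsPGroup p (shQ J p) := by
  rintro ⟨_, y, rfl⟩
  refine ⟨1, Subtype.ext ?_⟩
  show sh J y ^ p ^ 1 = 1
  rw [pow_one, ← sh_nsmul]
  simp [sh_zero]

theorem T_kap_xx (b : ZMod p) :
    T (kap J p) (xx b) = tr (Sum.elim (fun x => b * x) (fun _ : J => (0 : ZMod p))) := by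
  symm
  apply T_ext
  · intro x
    rw [tr_apply]
    rfl
  · rintro ⟨i | j, z⟩ hy
    · exact absurd ⟨(i, z), rfl⟩ hy
    · rw [tr_apply]
      simp

theorem T_kap_tp (w : ZMod p × ZMod p) :
    T (kap J p) (tp w) = tr (Sum.elim (fun _ => w.2) (fun _ : J => (0 : ZMod p))) * bl (sh J w.1) := by
  symm
  apply T_ext
  · intro x
    rw [mul_apply, tr_apply]
    rfl
  · rintro ⟨i | j, z⟩ hy
    · exact absurd ⟨(i, z), rfl⟩ hy
    · rw [mul_apply, tr_apply]
      simp

theorem T_kap_tt (a : (ZMod p)ˣ) :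
    T (kap J p) (tt a) = sc (Sum.elim (fun _ => a) (fun _ : J => (1 : (ZMod p)ˣ))) * bl (mu J a⁻¹) := by
  symm
  apply T_ext
  · intro x
    rw [mul_apply, sc_apply]
    rfl
  · rintro ⟨i | j, z⟩ hy
    · exact absurd ⟨(i, z), rfl⟩ hy
    · rw [mul_apply, sc_apply]
      simp

/-- elements of the plane commute with the translations of the other blocks -/
theorem T_kap_comm (g : Perm (ZMod p × ZMod p)) {f : ZMod p ⊕ J → ZMod p} (hf : ∀ x, f (Sum.inl x) = 0) :
    T (kap J p) g * tr f = tr f * T (kap J p) g := by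
  ext1 ⟨i, z⟩
  rcases i with x | j
  · have h1 : tr f ((Sum.inl x : ZMod p ⊕ J), z) = (Sum.inl x, z) := by rw [tr_apply, hf, add_zero]
    have h2 : ((Sum.inl x : ZMod p ⊕ J), z) = kap J p (x, z) := rfl
    rw [mul_apply, mul_apply, h1, h2, T_apply, kap_apply, tr_apply, hf, add_zero]
  · rw [mul_apply, mul_apply, tr_apply, T_out _ _ (not_mem_kap j _), T_out _ _ (not_mem_kap j _), tr_apply]

/-- the translations of the plane, times the base group of the other blocks -/
def V1 (ι : (ZMod p ⊕ J) × ZMod p ↪ α) : Subgroup (Perm α) where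
  carrier := {g | ∃ (w : ZMod p × ZMod p) (f : ZMod p ⊕ J → ZMod p), (∀ x, f (Sum.inl x) = 0) ∧
    g = T ι (T (kap J p) (tp w) * tr f)}
  mul_mem' := by
    rintro _ _ ⟨w, f, hf, rfl⟩ ⟨w', f', hf', rfl⟩
    refine ⟨w' + w, f + f', fun x => by rw [Pi.add_apply, hf, hf', add_zero], ?_⟩
    have h : (tp (w' + w) : Perm (ZMod p × ZMod p)) = tp w * tp w' := by
      ext1 x
      simp only [tp_apply, mul_apply, add_assoc]
    rw [h, map_mul (T (kap J p)), tr_add, ← map_mul (T ι)]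
    congr 1
    calc T (kap J p) (tp w) * tr f * (T (kap J p) (tp w') * tr f')
        = T (kap J p) (tp w) * (tr f * T (kap J p) (tp w')) * tr f' := by group
      _ = T (kap J p) (tp w) * (T (kap J p) (tp w') * tr f) * tr f' := by rw [T_kap_comm _ hf]
      _ = _ := by group
  one_mem' := ⟨0, 0, fun _ => rfl, by
    have h : (tp 0 : Perm (ZMod p × ZMod p)) = 1 := by
      ext1 x
      simp
    rw [h, map_one, tr_zero, one_mul, map_one]⟩
  inv_mem' := by
    rintro _ ⟨w, f, hf, rfl⟩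
    refine ⟨-w, -f, fun x => by rw [Pi.neg_apply, hf, neg_zero], ?_⟩
    have h : (tp (-w) : Perm (ZMod p × ZMod p)) = (tp w)⁻¹ := by
      rw [eq_inv_iff_mul_eq_one]
      ext1 x
      simp
    rw [h, map_inv, tr_neg, ← map_inv]
    congr 1
    rw [T_kap_comm _ hf, mul_inv_rev]

theorem mem_V1 {ι : (ZMod p ⊕ J) × ZMod p ↪ α} {g : Perm α} : g ∈ V1 ι ↔
    ∃ (w : ZMod p × ZMod p) (f : ZMod p ⊕ J → ZMod p), (∀ x, f (Sum.inl x) = 0) ∧
    g = T ι (T (kap J p) (tp w) * tr f) := Iff.rfl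

theorem V1_le (ι : (ZMod p ⊕ J) × ZMod p ↪ α) : V1 ι ≤ wr ι (shQ J p) := by
  rintro _ ⟨w, f, hf, rfl⟩
  rw [T_kap_comm _ hf, T_kap_tp, ← mul_assoc, ← tr_add]
  exact ⟨_, _, sh_mem _, rfl⟩

/-- linear maps of the plane normalise `V1` -/
theorem conj_V1 {ι : (ZMod p ⊕ J) × ZMod p ↪ α} {g : Perm (ZMod p × ZMod p)}
    (hg : ∀ x y, g (x + y) = g x + g y) {x : Perm α} (hx : x ∈ V1 ι) :
    T ι (T (kap J p) g) * x * (T ι (T (kap J p) g))⁻¹ ∈ V1 ι := by
  obtain ⟨w, f, hf, rfl⟩ := hx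
  refine ⟨g w, f, hf, ?_⟩
  rw [← map_inv (T ι), ← map_mul (T ι), ← map_mul (T ι), ← conj_tp hg, map_mul (T (kap J p)),
    map_mul (T (kap J p)), map_inv (T (kap J p))]
  congr 1
  have h := T_kap_comm g hf
  calc T (kap J p) g * (T (kap J p) (tp w) * tr f) * (T (kap J p) g)⁻¹
      = T (kap J p) g * T (kap J p) (tp w) * (T (kap J p) g)⁻¹ * (T (kap J p) g * tr f) * (T (kap J p) g)⁻¹ := by
        group
    _ = T (kap J p) g * T (kap J p) (tp w) * (T (kap J p) g)⁻¹ * (tr f * T (kap J p) g) * (T (kap J p) g)⁻¹ := by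
        rw [h]
    _ = _ := by group

theorem pow_sh_bl_apply (y : ZMod p) (k : ℕ) (x z : ZMod p) :
    ((bl (sh J y) : Perm ((ZMod p ⊕ J) × ZMod p)) ^ k) (Sum.inl x, z) = (Sum.inl (x + k * y), z) := by
  rw [← bl_pow, ← sh_nsmul, bl_apply]
  simp

/-- **`V1` is self-centralising.** -/
theorem cent_V1 [Fact p.Prime] [Finite J] [DecidableEq J] {ι : (ZMod p ⊕ J) × ZMod p ↪ α}
    (hout : ∀ y z : α, y ∉ Set.range ι → z ∉ Set.range ι → y = z) {g : Perm α}
    (hg : ∀ x ∈ V1 ι, g * x = x * g) : g ∈ V1 ι := by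
  have hp : p.Prime := Fact.out
  have hcomm : ∀ (w : ZMod p × ZMod p) (f : ZMod p ⊕ J → ZMod p), (∀ x, f (Sum.inl x) = 0) → ∀ y : α,
      g (T ι (T (kap J p) (tp w) * tr f) y) = T ι (T (kap J p) (tp w) * tr f) (g y) := by
    intro w f hf y
    exact congrArg (fun e : Perm α => e y) (hg _ ⟨w, f, hf, rfl⟩)
  -- the other blocks
  have h1 : ∀ j : J, ∃ b : ZMod p, g (ι (Sum.inr j, 0)) = ι (Sum.inr j, b) := by
    intro j
    have h2 := hcomm 0 (Pi.single (Sum.inr j) 1) (fun x => Pi.single_eq_of_ne (by simp) _) (ι (Sum.inr j, 0))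
    have h3 : (tp 0 : Perm (ZMod p × ZMod p)) = 1 := by
      ext1 x
      simp
    rw [h3, map_one, one_mul] at h2
    refine moved_single (u := (1 : ZMod p)) (i := (Sum.inr j : ZMod p ⊕ J)) ?_
    rw [← h2, T_apply, tr_apply]
    intro h4
    have := congrArg Prod.snd (ι.injective (g.injective h4))
    simp at this
  choose b hb using h1
  have h2 : ∀ (j : J) (z : ZMod p), g (ι (Sum.inr j, z)) = ι (Sum.inr j, z + b j) := by
    intro j z
    have h3 := hcomm 0 (Pi.single (Sum.inr j) z) (fun x => Pi.single_eq_of_ne (by simp) _) (ι (Sum.inr j, 0))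
    have h4 : (tp 0 : Perm (ZMod p × ZMod p)) = 1 := by
      ext1 x
      simp
    rw [h4, map_one, one_mul, hb, T_apply, T_apply, tr_apply, tr_apply] at h3
    simp only [Pi.single_eq_same, zero_add] at h3
    rw [h3, add_comm]
  -- the plane
  have h3 : ∃ w : ZMod p × ZMod p, g (ι (Sum.inl 0, 0)) = ι (kap J p w) := by
    have h4 := hcomm (1, 0) 0 (fun _ => rfl) (ι (Sum.inl 0, 0))
    have h0 : ((Sum.inl (0 : ZMod p) : ZMod p ⊕ J), (0 : ZMod p)) = kap J p (0, 0) := rfl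
    rw [tr_zero, mul_one] at h4
    by_contra hc
    push Not at hc
    have h5 : T ι (T (kap J p) (tp (1, 0))) (g (ι (Sum.inl 0, 0))) = g (ι (Sum.inl 0, 0)) := by
      by_cases hy : g (ι (Sum.inl 0, 0)) ∈ Set.range ι
      · obtain ⟨⟨i, z⟩, hiz⟩ := hy
        rcases i with x | j
        · exact absurd hiz.symm (hc (x, z))
        · rw [← hiz, T_apply, T_out _ _ (not_mem_kap j z)]
      · rw [T_out _ _ hy]
    rw [← h4] at h5
    have h6 := g.injective h5
    rw [T_apply, h0, T_apply] at h6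
    have h7 := (kap J p).injective (ι.injective h6)
    simp at h7
  obtain ⟨w, hw⟩ := h3
  have h4 : ∀ x : ZMod p × ZMod p, g (ι (kap J p x)) = ι (kap J p (x + w)) := by
    intro x
    have h5 := hcomm x 0 (fun _ => rfl) (ι (Sum.inl 0, 0))
    have h0 : ((Sum.inl (0 : ZMod p) : ZMod p ⊕ J), (0 : ZMod p)) = kap J p 0 := rfl
    rw [tr_zero, mul_one, hw, T_apply, h0, T_apply, T_apply, T_apply, tp_apply, tp_apply, zero_add] at h5
    rw [h5, add_comm]
  refine ⟨w, Sum.elim (fun _ => 0) b, fun _ => rfl, ?_⟩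
  apply T_ext
  · rintro ⟨i, z⟩
    rcases i with x | j
    · have h5 : ((Sum.inl x : ZMod p ⊕ J), z) = kap J p (x, z) := rfl
      rw [h5, h4, mul_apply]
      congr 1
      have h6 : tr (Sum.elim (fun _ => (0 : ZMod p)) b) (kap J p (x, z)) = kap J p (x, z) := by
        rw [tr_apply, kap_apply]
        simp
      rw [h6, T_apply, tp_apply]
    · rw [h2, mul_apply, tr_apply]
      congr 1
      rw [T_out _ _ (not_mem_kap j _)]
      rfl
  · intro y hy
    apply hout _ _ _ hy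
    rintro ⟨⟨i, z⟩, hiz⟩
    apply hy
    rcases i with x | j
    · refine ⟨kap J p ((x, z) - w), ?_⟩
      apply g.injective
      rw [h4, sub_add_cancel, ← hiz]
      rfl
    · refine ⟨(Sum.inr j, z - b j), ?_⟩
      apply g.injective
      rw [h2, sub_add_cancel, ← hiz]

/-- `tt a` normalises the wreath product `R1 = wr ι (shQ J p)` -/
theorem conj_tt_R1 (ι : (ZMod p ⊕ J) × ZMod p ↪ α) (a : (ZMod p)ˣ) {x : Perm α} (hx : x ∈ wr ι (shQ J p)) :
    T ι (T (kap J p) (tt a)) * x * (T ι (T (kap J p) (tt a)))⁻¹ ∈ wr ι (shQ J p) := by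
  obtain ⟨f, _, ⟨y, rfl⟩, rfl⟩ := hx
  set A := Sum.elim (fun _ => a) (fun _ : J => (1 : (ZMod p)ˣ)) with hA
  have h1 : T (kap J p) (tt a) * tr f * (T (kap J p) (tt a))⁻¹ =
      tr (fun i => (A i : ZMod p) * f ((mu J a⁻¹).symm i)) := by
    rw [T_kap_tt]
    have := mono_tr 0 A (mu J a⁻¹) f
    rw [tr_zero, one_mul] at this
    exact this
  have h2 : T (kap J p) (tt a) * bl (sh J y) * (T (kap J p) (tt a))⁻¹ =
      bl (sh J (((a⁻¹ : (ZMod p)ˣ) : ZMod p) * y)) := by
    have h4 : ∀ u : ZMod p, (bl (sh J u) : Perm ((ZMod p ⊕ J) × ZMod p)) = T (kap J p) (tp (u, 0)) := by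
      intro u
      rw [T_kap_tp]
      have : (Sum.elim (fun _ : ZMod p => (0 : ZMod p)) (fun _ : J => (0 : ZMod p))) = 0 := by
        funext i
        rcases i with i | i <;> rfl
      rw [this, tr_zero, one_mul]
    rw [h4, h4, ← map_inv, ← map_mul, ← map_mul, conj_tp (tt_add a), tt_apply, mul_zero]
  refine ⟨fun i => (A i : ZMod p) * f ((mu J a⁻¹).symm i), _, sh_mem (((a⁻¹ : (ZMod p)ˣ) : ZMod p) * y), ?_⟩
  rw [← map_inv (T ι), ← map_mul (T ι), ← map_mul (T ι), ← h2, ← h1]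
  congr 1
  group

end Cfsg.Agent.H761
end

-- part: H761/Crit
section
/-!
# More on the groups `Nn E V` (helper761)

`G` a group, `S` a `p`-subgroup, `E` a saturated subsystem over `S` of `F_S(G)`; `Nn E V` (helper763) = the elements of
`N_G(V)` inducing maps of `E` on `V`.

* `Nn_up` : `V ≤ R ≤ S`, `R ≤ N_G(V)`, `C_G(V) ≤ V`, `t ∈ N_G(R)`, `t ∈ Nn E V` ⟹ `t ∈ Nn E R`;
* `Nn_down` : `V ≤ R ≤ S`, `t ∈ Nn E R`, `t ∈ N_G(V)` ⟹ `t ∈ Nn E V`.
-/

set_option autoImplicit false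

namespace Cfsg.Agent.H761

open Cfsg Cfsg.FusionSystem Cfsg.Agent.H802 Cfsg.Agent.H763

variable {G : Type*} [Group G] {S : Subgroup G}

theorem isFullyCentralized_of_centralizer_le [Finite S] {E : FusionSystem S}
    (hEF : E.IsSubsystemOf (groupFusionSystem S)) {V : Subgroup G} (hV : V ≤ S)
    (hC : Subgroup.centralizer (V : Set G) ≤ V) : E.IsFullyCentralized V := by
  refine ⟨hV, ?_⟩
  rintro Q ⟨φ, hφ, rfl⟩
  obtain ⟨g, rfl⟩ := exists_conj_of_mem' hEF hφ
  have hfin : Finite (centralizerIn S V) := finite_of_le inf_le_left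
  have hmem : ∀ x ∈ centralizerIn S (conjHom V g).range, g⁻¹ * x * g ∈ centralizerIn S V := by
    intro x hx
    have h1 : g⁻¹ * x * g ∈ Subgroup.centralizer (V : Set G) := by
      rw [Subgroup.mem_centralizer_iff]
      intro v hv
      have h2 := Subgroup.mem_centralizer_iff.1 hx.2 (g * v * g⁻¹) ⟨⟨v, hv⟩, rfl⟩
      calc v * (g⁻¹ * x * g) = g⁻¹ * (g * v * g⁻¹ * x) * g := by group
        _ = g⁻¹ * (x * (g * v * g⁻¹)) * g := by rw [h2]
        _ = g⁻¹ * x * g * v := by group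
    exact ⟨hV (hC h1), h1⟩
  refine Nat.card_le_card_of_injective (fun x => ⟨g⁻¹ * x * g, hmem x x.2⟩) ?_
  intro x y hxy
  have h := congrArg Subtype.val hxy
  exact Subtype.ext (mul_left_cancel (mul_right_cancel h))

/-- going up from a self-centralising subgroup -/
theorem Nn_up {p : ℕ} [Fact p.Prime] [Finite S] (hS : IsPGroup p S)
    {E : FusionSystem S} (hE : E.IsSaturated p) (hEF : E.IsSubsystemOf (groupFusionSystem S))
    {V R : Subgroup G} (hVR : V ≤ R) (hR : R ≤ S) (hRV : R ≤ Subgroup.normalizer (V : Set G))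
    (hC : Subgroup.centralizer (V : Set G) ≤ V) {t : G}
    (htR : t ∈ Subgroup.normalizer (R : Set G)) (ht : t ∈ Nn E (hVR.trans hR)) : t ∈ Nn E hR := by
  have hV : V ≤ S := hVR.trans hR
  refine ⟨htR, ?_⟩
  have hrec := isReceptive_of_isFullyCentralized hS hE (isFullyCentralized_of_centralizer_le hEF hV hC)
  have hr : (conjHom V t).range = V := by
    ext z
    constructor
    · rintro ⟨x, rfl⟩
      exact (Subgroup.mem_normalizer_iff.1 ht.1 x).1 x.2
    · intro hz
      have h1 := (Subgroup.mem_normalizer_iff.1 (inv_mem ht.1) z).1 hz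
      refine ⟨⟨_, h1⟩, ?_⟩
      show t * (t⁻¹ * z * t⁻¹⁻¹) * t⁻¹ = z
      group
  obtain ⟨ψ, hψ, hψe⟩ := hrec.2 V _ ht.2 hr
  -- the extender contains `R`
  have hext : R ≤ extender S V (conjHom V t) := by
    intro g hg
    rw [mem_extender_iff]
    refine ⟨hR hg, hRV hg, t * g * t⁻¹, hR ((Subgroup.mem_normalizer_iff.1 htR g).1 hg), fun x hx => ?_⟩
    show t * (g * x * g⁻¹) * t⁻¹ = t * g * t⁻¹ * (t * x * t⁻¹) * (t * g * t⁻¹)⁻¹
    group
  obtain ⟨y, rfl⟩ := exists_conj_of_mem' hEF hψ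
  have hz : y⁻¹ * t ∈ Subgroup.centralizer (V : Set G) := by
    rw [Subgroup.mem_centralizer_iff]
    intro v hv
    have h1 := hψe v hv (hext (hVR hv))
    have h2 : y * v * y⁻¹ = t * v * t⁻¹ := h1
    calc v * (y⁻¹ * t) = y⁻¹ * (y * v * y⁻¹) * t := by group
      _ = y⁻¹ * (t * v * t⁻¹) * t := by rw [h2]
      _ = y⁻¹ * t * v := by group
  have hzS : y⁻¹ * t ∈ V := hC hz
  obtain ⟨χ, hχ, he⟩ := exists_comp (E.conj_mem (P := R) hR (hV hzS)) hψ
    (fun x => hext (mul_mem (mul_mem (hVR hzS) x.2) (inv_mem (hVR hzS))))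
  refine mem_of_apply_eq hχ fun x => ?_
  rw [he]
  show t * x * t⁻¹ = y * (y⁻¹ * t * x * (y⁻¹ * t)⁻¹) * y⁻¹
  group

theorem Nn_down {E : FusionSystem S} {V R : Subgroup G} (hVR : V ≤ R) (hR : R ≤ S) {t : G}
    (htV : t ∈ Subgroup.normalizer (V : Set G)) (ht : t ∈ Nn E hR) : t ∈ Nn E (hVR.trans hR) :=
  ⟨htV, mem_of_agree ht.2 hVR fun _ _ => rfl⟩

/-- going up from a self-centralising subgroup, along a chain of normalisers -/
theorem Nn_up_chain {p : ℕ} [Fact p.Prime] [Finite S] (hS : IsPGroup p S)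
    {E : FusionSystem S} (hE : E.IsSaturated p) (hEF : E.IsSubsystemOf (groupFusionSystem S))
    {R : Subgroup G} (hR : R ≤ S) {t : G} (htR : t ∈ Subgroup.normalizer (R : Set G)) :
    ∀ (n : ℕ) (V : Subgroup G) (_ : Nat.card R ≤ Nat.card V + n) (hVR : V ≤ R)
      (_ : Subgroup.centralizer (V : Set G) ≤ V) (_ : t ∈ Nn E (hVR.trans hR)), t ∈ Nn E hR := by
  have hfin : Finite R := finite_of_le hR
  intro n
  induction n with
  | zero =>
    intro V hc hVR _ ht
    have h : V = R := Subgroup.eq_of_le_of_card_ge hVR hc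
    subst h
    exact ht
  | succ n ih =>
    intro V hc hVR hC ht
    by_cases hne : V = R
    · subst hne
      exact ht
    · have hlt := lt_inf_normalizer hS hVR hR hne
      have hle : (R ⊓ Subgroup.normalizer (V : Set G) : Subgroup G) ≤ R := inf_le_left
      have hfin2 : Finite (R ⊓ Subgroup.normalizer (V : Set G) : Subgroup G) := finite_of_le (S := R) hle
      have hcard : Nat.card V < Nat.card (R ⊓ Subgroup.normalizer (V : Set G) : Subgroup G) := by
        refine lt_of_le_of_ne (Nat.card_mono (Set.toFinite _) hlt.le) fun heq => ?_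
        exact hlt.ne (Subgroup.eq_of_le_of_card_ge hlt.le heq.ge)
      refine ih _ (by omega) hle ?_ ?_
      · exact (Subgroup.centralizer_le hlt.le).trans (hC.trans hlt.le)
      · refine Nn_up hS hE hEF hlt.le (hle.trans hR) inf_le_right hC ?_ ht
        rw [Subgroup.mem_normalizer_iff] at htR ⊢
        intro x
        have htV := ht.1
        constructor
        · rintro ⟨h1, h2⟩
          exact ⟨(htR x).1 h1, mul_mem (mul_mem htV h2) (Subgroup.inv_mem _ htV)⟩
        · rintro ⟨h1, h2⟩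
          refine ⟨(htR x).2 h1, ?_⟩
          have h3 := mul_mem (mul_mem (Subgroup.inv_mem _ htV) h2) htV
          have h4 : t⁻¹ * (t * x * t⁻¹) * t = x := by group
          rwa [h4] at h3

theorem Nn_up' {p : ℕ} [Fact p.Prime] [Finite S] (hS : IsPGroup p S)
    {E : FusionSystem S} (hE : E.IsSaturated p) (hEF : E.IsSubsystemOf (groupFusionSystem S))
    {V R : Subgroup G} (hVR : V ≤ R) (hR : R ≤ S)
    (hC : Subgroup.centralizer (V : Set G) ≤ V) {t : G}
    (htR : t ∈ Subgroup.normalizer (R : Set G)) (ht : t ∈ Nn E (hVR.trans hR)) : t ∈ Nn E hR :=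
  Nn_up_chain hS hE hEF hR htR (Nat.card R) V (by omega) hVR hC ht

/-- the `p`-elements normalising a normal subgroup of the Sylow subgroup `S` induce maps of `E` -/
theorem mem_Nn_of_pElement {p : ℕ} [Fact p.Prime] [Finite G] (hS : SylIn p S ⊤) {E : FusionSystem S}
    (hEF : E.IsInvariantIn (groupFusionSystem S)) {V : Subgroup G} (hV : V ≤ S)
    (hSV : S ≤ Subgroup.normalizer (V : Set G)) {x : G} (hx : x ∈ Subgroup.normalizer (V : Set G)) {k : ℕ}
    (hk : x ^ p ^ k = 1) : x ∈ Nn E hV := by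
  have h1 : SylIn p S (Subgroup.normalizer (V : Set G)) := hS.mono hSV le_top
  have h2 : IsPGroup p (Subgroup.zpowers x) := by
    rintro ⟨y, n, hn⟩
    refine ⟨k, Subtype.ext ?_⟩
    show y ^ p ^ k = 1
    rw [← hn]
    show (x ^ n) ^ p ^ k = 1
    rw [← zpow_natCast, ← zpow_mul, mul_comm, zpow_mul, zpow_natCast, hk, one_zpow]
  obtain ⟨n, hn, hn'⟩ := h1.exists_conj ((Subgroup.zpowers_le).2 hx) h2
  have h3 : n * x * n⁻¹ ∈ Nn E hV := by
    have h4 := hn' x (Subgroup.mem_zpowers x)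
    exact mem_Nn_of_mem hV h4 (hSV h4)
  have h5 := Nn_conj hEF hV h3 (Subgroup.inv_mem _ hn)
  have h6 : n⁻¹ * (n * x * n⁻¹) * n⁻¹⁻¹ = x := by group
  rwa [h6] at h5

theorem hom_eq_of_normalizer_le {E : FusionSystem S} (hEF : E.IsInvariantIn (groupFusionSystem S))
    (h : Subgroup.normalizer (S : Set G) ≤ Nn E (le_refl S)) (P : Subgroup G) :
    E.Hom P = (groupFusionSystem S).Hom P := by
  refine hom_eq_of_autGroup_le hEF ?_ P
  intro α hα
  have h1 := (mem_autGroup_iff _ le_rfl α).1 hα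
  obtain ⟨-, -, g, hg⟩ := h1
  have hg' : ∀ x : S, ((α x : S) : G) = g * x * g⁻¹ := hg
  have h2 := h (mem_normalizer_of_aut hg')
  exact (mem_autGroup_iff _ le_rfl α).2 (mem_of_apply_eq h2.2 hg')

/-- **Simplicity criterion**, in terms of the groups `Nn E V`. -/
theorem isSimple_of_normalizer_le {p : ℕ} (hsat : (groupFusionSystem S).IsSaturated p) (hS1 : S ≠ ⊥)
    (hcl : ∀ D : Subgroup G, (groupFusionSystem S).StronglyClosed D → D = ⊥ ∨ D = S)
    (h : ∀ E : FusionSystem S, E.IsSaturated p → E.IsInvariantIn (groupFusionSystem S) →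
      Subgroup.normalizer (S : Set G) ≤ Nn E (le_refl S)) :
    (groupFusionSystem S).IsSimple p := by
  refine ⟨hsat, hS1, fun D E hE => ?_⟩
  rcases hcl D hE.1.2.2.2.1 with h1 | h1
  · exact Or.inl h1
  · right
    subst h1
    exact ⟨rfl, hom_eq_of_normalizer_le hE.1.2.2 (h E hE.1.1 hE.1.2.2)⟩

end Cfsg.Agent.H761
end

-- part: H761/OddE
section
/-!
# `Aut_F(S) ≤ Aut_E(S)` in alternating groups, `p` odd (helper761)

`|α| = p |I| + r`, `r ≤ 1`, `I = ZMod p ⊕ J`, `S = wr ι P` Sylow in `A = alternatingGroup α`, `E` saturated, over `S`,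
invariant in `F_S(A)`: `normalizer_le_Nn` : `N_A(S)` induces maps of `E`.
-/

set_option autoImplicit false

namespace Cfsg.Agent.H761

open Equiv Equiv.Perm Cfsg.Agent.H761.Frame Cfsg.Agent.H802 Cfsg.Agent.H763 Cfsg Cfsg.FusionSystem

section general

variable {α : Type*} [Fintype α] [DecidableEq α]

theorem mem_normalizer_subgroupOf {H : Subgroup (Perm α)} {g : alternatingGroup α}
    (h : ∀ x ∈ H, (g : Perm α) * x * (g : Perm α)⁻¹ ∈ H) :
    g ∈ Subgroup.normalizer ((H.subgroupOf (alternatingGroup α) : Subgroup _) : Set (alternatingGroup α)) := by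
  have h1 : H.map (MulAut.conj (g : Perm α)).toMonoidHom = H := by
    apply Subgroup.eq_of_le_of_card_ge
    · rintro _ ⟨x, hx, rfl⟩
      exact h x hx
    · rw [card_map_conj]
  rw [Subgroup.mem_normalizer_iff]
  intro x
  rw [Subgroup.mem_subgroupOf, Subgroup.mem_subgroupOf]
  constructor
  · intro hx
    exact h _ hx
  · intro hx
    have h2 : ((g * x * g⁻¹ : alternatingGroup α) : Perm α) ∈ H.map (MulAut.conj (g : Perm α)).toMonoidHom := by
      rw [h1]
      exact hx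
    obtain ⟨y, hy, hyx⟩ := h2
    have h3 : (g : Perm α) * y * (g : Perm α)⁻¹ = (g : Perm α) * x * (g : Perm α)⁻¹ := hyx
    have h4 : y = x := mul_left_cancel (mul_right_cancel h3)
    rw [← h4]
    exact hy

theorem centralizer_subgroupOf_le {H : Subgroup (Perm α)} (hA : H ≤ alternatingGroup α)
    (h : ∀ g : Perm α, (∀ x ∈ H, g * x = x * g) → g ∈ H) :
    Subgroup.centralizer ((H.subgroupOf (alternatingGroup α) : Subgroup _) : Set (alternatingGroup α)) ≤
      H.subgroupOf (alternatingGroup α) := by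
  intro g hg
  rw [Subgroup.mem_subgroupOf]
  apply h
  intro x hx
  have h1 := Subgroup.mem_centralizer_iff.1 hg ⟨x, hA hx⟩ (by
    show _ ∈ H.subgroupOf (alternatingGroup α)
    rw [Subgroup.mem_subgroupOf]
    exact hx)
  exact (congrArg Subtype.val h1).symm

/-- `p`-cycles generate the alternating group -/
theorem alternating_le_of_pow {I : Type*} [Fintype I] [DecidableEq I] {p : ℕ} {H : Subgroup (Perm I)}
    (hH : ∀ c : Perm I, c ^ p = 1 → c ∈ H) {c₀ : Perm I} (hc : c₀ ^ p = 1) {a b d : I} (h1 : c₀ a = b)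
    (h2 : c₀ b = d) (hab : a ≠ b) (hbd : b ≠ d) (had : a ≠ d) : alternatingGroup I ≤ H := by
  rw [← closure_three_cycles_eq_alternating, Subgroup.closure_le]
  intro s hs
  have hs0 : (swap b a * swap b d).IsThreeCycle := isThreeCycle_swap_mul_swap_same hab.symm hbd had
  have hconj : IsConj (swap b a * swap b d) s := by
    rw [isConj_iff_cycleType_eq, hs0.cycleType, IsThreeCycle.cycleType hs]
  obtain ⟨g, hg⟩ := isConj_iff.1 hconj
  have h3 : swap b a * swap b d = c₀⁻¹ * (swap b d * c₀ * (swap b d)⁻¹) := by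
    have h4 : c₀⁻¹ * swap b d * c₀ = swap a b := by
      have h5 : swap b d = c₀ * swap a b * c₀⁻¹ := by
        rw [← h2, ← h1]
        exact swap_apply_apply c₀ a (c₀ a)
      rw [h5]
      group
    calc swap b a * swap b d = (c₀⁻¹ * swap b d * c₀) * (swap b d)⁻¹ := by rw [h4, swap_inv, swap_comm b a]
      _ = _ := by group
  have h6 : s = (g * c₀⁻¹ * g⁻¹) * ((g * swap b d) * c₀ * (g * swap b d)⁻¹) := by
    rw [← hg, h3]
    group
  rw [h6]
  refine H.mul_mem (hH _ ?_) (hH _ ?_)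
  · rw [conj_pow, inv_pow, hc, inv_one, mul_one, mul_inv_cancel]
  · rw [conj_pow, hc, mul_one, mul_inv_cancel]

end general

section main

variable {J α : Type*} {p : ℕ} [Fact p.Prime] [Fintype J] [DecidableEq J] [Fintype α] [DecidableEq α]

omit [Fintype α] [DecidableEq α] in
theorem isPGroup_wr {I : Type*} [Fintype I] {ι : I × ZMod p ↪ α} {P : Subgroup (Perm I)} (hP : IsPGroup p P) :
    IsPGroup p (wr ι P) := by
  obtain ⟨k, hk⟩ := IsPGroup.iff_card.1 hP
  apply IsPGroup.of_card (n := Fintype.card I + k)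
  rw [card_wr, hk, pow_add]

theorem le_alternating_of_isPGroup (hp2 : p ≠ 2) {H : Subgroup (Perm α)} (hH : IsPGroup p H) :
    H ≤ alternatingGroup α := by
  intro x hx
  have hp : p.Prime := Fact.out
  obtain ⟨k, hk⟩ := hH ⟨x, hx⟩
  have hk' : x ^ p ^ k = 1 := congrArg Subtype.val hk
  rw [mem_alternatingGroup]
  exact sign_eq_one_of_odd_pow ((hp.odd_of_ne_two hp2).pow) hk'

theorem sign_xx (hp2 : p ≠ 2) (b : ZMod p) : sign (xx b) = 1 := by
  have hp : p.Prime := Fact.out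
  rw [← sign_T (kap (Fin 0) p), T_kap_xx]
  exact sign_tr_of_odd (hp.odd_of_ne_two hp2) _

theorem sign_ww (hp2 : p ≠ 2) : sign (ww : Perm (ZMod p × ZMod p)) = 1 := by
  rw [ww_eq, yy_eq, map_mul, map_mul, map_mul, map_mul, map_inv, sign_xx hp2, sign_xx hp2]
  rcases Int.units_eq_one_or (sign (ww : Perm (ZMod p × ZMod p))) with h | h <;> rw [h] <;> decide

theorem sign_tt (hp2 : p ≠ 2) (a : (ZMod p)ˣ) : sign (tt a) = 1 := by
  rw [tt_eq, yy_eq]
  simp only [map_mul, map_inv, sign_xx hp2, sign_ww hp2]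
  decide

variable {ι : (ZMod p ⊕ J) × ZMod p ↪ α} {P : Subgroup (Perm (ZMod p ⊕ J))}
  {S : Subgroup (alternatingGroup α)} {E : FusionSystem S}

/-- the elements `tt a` induce maps of `E` on the base group -/
theorem tt_mem (hp2 : p ≠ 2) (hout : ∀ y z : α, y ∉ Set.range ι → z ∉ Set.range ι → y = z)
    (hQ : shQ J p ≤ P) (hP : IsPGroup p P) (hS : S = (wr ι P).subgroupOf (alternatingGroup α))
    (hE : E.IsSaturated p) (hEF : E.IsInvariantIn (groupFusionSystem S))
    (hB : (base ι).subgroupOf (alternatingGroup α) ≤ S) (a : (ZMod p)ˣ) :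
    T ι (T (kap J p) (tt a)) ∈ (Nn E hB).map (alternatingGroup α).subtype := by
  have hSp : IsPGroup p S := by
    rw [hS]
    exact (isPGroup_wr hP).comap_of_injective _ (Subgroup.subtype_injective _)
  have hwA : wr ι P ≤ alternatingGroup α := le_alternating_of_isPGroup hp2 (isPGroup_wr hP)
  have hRle : wr ι (shQ J p) ≤ wr ι P := by
    rintro _ ⟨f, σ, hσ, rfl⟩
    exact ⟨f, σ, hQ hσ, rfl⟩
  have hV1 : V1 ι ≤ wr ι P := (V1_le ι).trans hRle
  have hV : (V1 ι).subgroupOf (alternatingGroup α) ≤ S := by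
    rw [hS]
    exact Subgroup.comap_mono hV1
  have hR : (wr ι (shQ J p)).subgroupOf (alternatingGroup α) ≤ S := by
    rw [hS]
    exact Subgroup.comap_mono hRle
  have hVR : (V1 ι).subgroupOf (alternatingGroup α) ≤ (wr ι (shQ J p)).subgroupOf (alternatingGroup α) :=
    Subgroup.comap_mono (V1_le ι)
  have hBR : (base ι).subgroupOf (alternatingGroup α) ≤ (wr ι (shQ J p)).subgroupOf (alternatingGroup α) := by
    apply Subgroup.comap_mono
    rintro _ ⟨f, σ, hσ, rfl⟩
    rw [Subgroup.mem_bot] at hσ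
    subst hσ
    exact ⟨f, 1, Subgroup.one_mem _, rfl⟩
  have hC : Subgroup.centralizer (((V1 ι).subgroupOf (alternatingGroup α) : Subgroup _) : Set (alternatingGroup α)) ≤
      (V1 ι).subgroupOf (alternatingGroup α) :=
    centralizer_subgroupOf_le (hV1.trans hwA) (fun g hg => cent_V1 hout hg)
  -- the elements of the plane inducing maps of `E` on `V1`
  obtain ⟨Φ, hΦ⟩ : ∃ Φ : Subgroup (Perm (ZMod p × ZMod p)),
      Φ = ((Nn E hV).map (alternatingGroup α).subtype).comap ((T ι).comp (T (kap J p))) := ⟨_, rfl⟩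
  have hmem : ∀ g, g ∈ Φ ↔ ∃ h : T ι (T (kap J p) g) ∈ alternatingGroup α, (⟨_, h⟩ : alternatingGroup α) ∈ Nn E hV := by
    intro g
    rw [hΦ, Subgroup.mem_comap]
    constructor
    · rintro ⟨y, hy, hyg⟩
      have h1 : (y : Perm α) = T ι (T (kap J p) g) := hyg
      refine ⟨by rw [← h1]; exact y.2, ?_⟩
      have h2 : (⟨T ι (T (kap J p) g), by rw [← h1]; exact y.2⟩ : alternatingGroup α) = y := Subtype.ext h1.symm
      rw [h2]
      exact hy
    · rintro ⟨h, h1⟩
      exact ⟨_, h1, rfl⟩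
  have hxx : ∀ b : ZMod p, xx b ∈ Φ := by
    intro b
    rw [hmem]
    have h1 : T ι (T (kap J p) (xx b)) ∈ wr ι P := by
      rw [T_kap_xx]
      exact tr_mem_wr ι P _
    refine ⟨hwA h1, mem_Nn_of_mem hV ?_ ?_⟩
    · rw [hS, Subgroup.mem_subgroupOf]
      exact h1
    · exact mem_normalizer_subgroupOf (fun x hx => conj_V1 (xx_add b) hx)
  have hwwA : T ι (T (kap J p) ww) ∈ alternatingGroup α := by
    rw [mem_alternatingGroup, sign_T, sign_T, sign_ww hp2]
  have hyy : ∀ b : ZMod p, yy b ∈ Φ := by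
    intro b
    obtain ⟨h1, h2⟩ := (hmem _).1 (hxx (-b))
    have h3 := Nn_conj hEF hV h2 (n := ⟨_, hwwA⟩)
      (mem_normalizer_subgroupOf (fun x hx => conj_V1 ww_add hx))
    rw [hΦ, Subgroup.mem_comap]
    refine ⟨_, h3, ?_⟩
    show T ι (T (kap J p) ww) * T ι (T (kap J p) (xx (-b))) * (T ι (T (kap J p) ww))⁻¹ =
      T ι (T (kap J p) (yy b))
    rw [yy_eq, ← map_inv, ← map_inv, ← map_mul, ← map_mul, ← map_mul, ← map_mul]
  have hww : (ww : Perm (ZMod p × ZMod p)) ∈ Φ := by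
    rw [ww_eq]
    exact Φ.mul_mem (Φ.mul_mem (hxx _) (hyy _)) (hxx _)
  have htt : tt a ∈ Φ := by
    rw [tt_eq]
    exact Φ.mul_mem (Φ.mul_mem (Φ.mul_mem (hxx _) (hyy _)) (hxx _)) (Φ.inv_mem hww)
  obtain ⟨h1, h2⟩ := (hmem _).1 htt
  have h3 := Nn_up' hSp hE hEF.1 hVR hR hC
    (mem_normalizer_subgroupOf (g := ⟨_, h1⟩) (fun x hx => conj_tt_R1 ι a hx)) h2
  have h4 := Nn_down hBR hR (mem_normalizer_subgroupOf (g := ⟨_, h1⟩) (fun x hx => by
    obtain ⟨f, rfl⟩ := mem_base.1 hx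
    show T ι (T (kap J p) (tt a)) * T ι (tr f) * (T ι (T (kap J p) (tt a)))⁻¹ ∈ base ι
    rw [T_kap_tt, ← map_inv (T ι), ← map_mul (T ι), ← map_mul (T ι)]
    have h5 := mono_tr 0 (Sum.elim (fun _ => a) (fun _ : J => (1 : (ZMod p)ˣ))) (mu J a⁻¹) f
    rw [tr_zero, one_mul] at h5
    rw [h5]
    exact mem_base.2 ⟨_, rfl⟩)) h3
  exact ⟨_, h4, rfl⟩

/-- **Every element of the normaliser of the base group induces a map of `E` on it.** -/
theorem base_norm_mem (hp2 : p ≠ 2) (hout : ∀ y z : α, y ∉ Set.range ι → z ∉ Set.range ι → y = z)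
    (hQ : shQ J p ≤ P) (hP : IsPGroup p P) (hS : S = (wr ι P).subgroupOf (alternatingGroup α))
    (hSyl : SylIn p S ⊤)
    (hE : E.IsSaturated p) (hEF : E.IsInvariantIn (groupFusionSystem S))
    (hB : (base ι).subgroupOf (alternatingGroup α) ≤ S) {g : Perm α} (hgA : g ∈ alternatingGroup α)
    (hg : ∀ x ∈ base ι, g * x * g⁻¹ ∈ base ι) :
    g ∈ (Nn E hB).map (alternatingGroup α).subtype := by
  have hp : p.Prime := Fact.out
  have hodd : Odd p := hp.odd_of_ne_two hp2
  have hp3 : 3 ≤ p := by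
    have := hp.two_le
    omega
  obtain ⟨H, hH⟩ : ∃ H : Subgroup (Perm α), H = (Nn E hB).map (alternatingGroup α).subtype := ⟨_, rfl⟩
  rw [← hH]
  have hHA : H ≤ alternatingGroup α := by
    rw [hH]
    rintro _ ⟨y, -, rfl⟩
    exact y.2
  have hwrnorm : ∀ x ∈ wr ι P, ∀ y ∈ base ι, x * y * x⁻¹ ∈ base ι := by
    rintro _ ⟨f, σ, -, rfl⟩ y hy
    obtain ⟨h, rfl⟩ := mem_base.1 hy
    rw [← map_inv (T ι), ← map_mul (T ι), ← map_mul (T ι)]
    have h5 := mono_tr f 1 σ h
    rw [sc_one, mul_one] at h5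
    rw [h5]
    exact mem_base.2 ⟨_, rfl⟩
  have hSB : S ≤ Subgroup.normalizer (((base ι).subgroupOf (alternatingGroup α) : Subgroup _) :
      Set (alternatingGroup α)) := by
    intro x hx
    rw [hS, Subgroup.mem_subgroupOf] at hx
    exact mem_normalizer_subgroupOf (hwrnorm _ hx)
  -- elements of order `p`
  have hpel : ∀ x : Perm ((ZMod p ⊕ J) × ZMod p), x ^ p = 1 →
      (∀ h : ZMod p ⊕ J → ZMod p, ∃ h', x * tr h * x⁻¹ = tr h') → T ι x ∈ H := by
    intro x hx hn
    have h1 : T ι x ∈ alternatingGroup α := by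
      rw [mem_alternatingGroup, sign_T]
      exact sign_eq_one_of_odd_pow hodd hx
    have h2 : (⟨T ι x, h1⟩ : alternatingGroup α) ∈ Nn E hB := by
      refine mem_Nn_of_pElement hSyl hEF hB hSB (k := 1) ?_ ?_
      · refine mem_normalizer_subgroupOf (fun y hy => ?_)
        obtain ⟨h, rfl⟩ := mem_base.1 hy
        show T ι x * T ι (tr h) * (T ι x)⁻¹ ∈ base ι
        obtain ⟨h', hh'⟩ := hn h
        rw [← map_inv (T ι), ← map_mul (T ι), ← map_mul (T ι), hh']
        exact mem_base.2 ⟨h', rfl⟩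
      · apply Subtype.ext
        show (T ι x) ^ p ^ 1 = 1
        rw [pow_one, ← map_pow, hx, map_one]
    rw [hH]
    exact ⟨_, h2, rfl⟩
  have htrH : ∀ f, T ι (tr f) ∈ H := by
    intro f
    refine hpel _ (tr_pow_q f) (fun h => ⟨h, ?_⟩)
    rw [tr_comm, mul_inv_cancel_right]
  have hblp : ∀ c : Perm (ZMod p ⊕ J), c ^ p = 1 → T ι (bl c) ∈ H := by
    intro c hc
    refine hpel _ (by rw [← bl_pow, hc, bl_one]) (fun h => ⟨_, bl_tr c h⟩)
  have hc0 : (sh J (1 : ZMod p)) ^ p = 1 := by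
    rw [← sh_nsmul]
    simp [sh_zero]
  have h01 : (0 : ZMod p) ≠ 1 := zero_ne_one
  have h12 : (1 : ZMod p) ≠ 2 := by
    intro h
    have h2 : (1 : ZMod p) = 0 := by linear_combination -h
    exact one_ne_zero h2
  have h02 : (0 : ZMod p) ≠ 2 := by
    intro h
    have h2 : ((2 : ℕ) : ZMod p) = 0 := by rw [Nat.cast_ofNat]; exact h.symm
    rw [ZMod.natCast_eq_zero_iff] at h2
    have := Nat.le_of_dvd (by norm_num) h2
    omega
  -- block permutations
  have hbl : ∀ σ ∈ alternatingGroup (ZMod p ⊕ J), T ι (bl σ) ∈ H := by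
    have h1 : alternatingGroup (ZMod p ⊕ J) ≤ H.comap ((T ι).comp (blHom (ZMod p ⊕ J) p)) :=
      alternating_le_of_pow (p := p) (fun c hc => hblp c hc) hc0 (a := Sum.inl 0) (b := Sum.inl 1)
        (d := Sum.inl 2) (by rw [sh_inl, zero_add]) (by rw [sh_inl, one_add_one_eq_two])
        (fun h => h01 (Sum.inl.inj h)) (fun h => h12 (Sum.inl.inj h)) (fun h => h02 (Sum.inl.inj h))
    exact fun σ hσ => h1 hσ
  -- scalings
  have hsc2 : ∀ (i j : ZMod p ⊕ J) (u : (ZMod p)ˣ), i ≠ j →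
      T ι (sc (Pi.mulSingle i u * (Pi.mulSingle j u)⁻¹)) ∈ H := by
    intro i j u hij
    obtain ⟨g, hg⟩ := Equiv.Perm.exists_extending_pair ![(Sum.inl 0 : ZMod p ⊕ J), Sum.inl 1] ![i, j]
      (by
        intro a b hab
        fin_cases a <;> fin_cases b <;> first | rfl | exact absurd (Sum.inl.inj hab) h01 |
          exact absurd (Sum.inl.inj hab) h01.symm)
      (by
        intro a b hab
        fin_cases a <;> fin_cases b <;> first | rfl | exact absurd hab hij | exact absurd hab hij.symm)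
    have hg0 : g (Sum.inl 0) = i := hg 0
    have hg1 : g (Sum.inl 1) = j := hg 1
    set c := g * sh J (1 : ZMod p) * g⁻¹ with hc
    have hcp : c ^ p = 1 := by rw [hc, conj_pow, hc0, mul_one, mul_inv_cancel]
    have hci : c i = j := by
      rw [hc, ← hg0]
      show g (sh J 1 (g.symm (g (Sum.inl 0)))) = j
      rw [symm_apply_apply, sh_inl, zero_add, hg1]
    set m : (ZMod p ⊕ J) → (ZMod p)ˣ := Pi.mulSingle i u with hm
    have hmc : m ∘ c.symm = Pi.mulSingle j u := by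
      funext k
      rw [Function.comp_apply, hm]
      by_cases hk : k = j
      · subst hk
        rw [← hci, symm_apply_apply, Pi.mulSingle_eq_same, Pi.mulSingle_eq_same]
      · rw [Pi.mulSingle_eq_of_ne hk, Pi.mulSingle_eq_of_ne]
        intro h
        apply hk
        rw [← hci, ← h, apply_symm_apply]
    have hX : T ι (sc m * bl c * (sc m)⁻¹) ∈ H := by
      refine hpel _ ?_ (fun h => ?_)
      · rw [conj_pow, ← bl_pow, hcp, bl_one, mul_one, mul_inv_cancel]
      · have h1 : sc m * bl c * (sc m)⁻¹ * tr h * (sc m * bl c * (sc m)⁻¹)⁻¹ =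
            sc m * (bl c * (sc m⁻¹ * tr h * (sc m⁻¹)⁻¹) * (bl c)⁻¹) * (sc m)⁻¹ := by
          rw [sc_inv]
          group
        rw [h1, sc_tr, bl_tr, sc_tr]
        exact ⟨_, rfl⟩
    have h1 := H.mul_mem hX (H.inv_mem (hblp c hcp))
    rw [← map_inv, ← map_mul] at h1
    have h2 : sc m * bl c * (sc m)⁻¹ * (bl c)⁻¹ = sc (m * (Pi.mulSingle j u)⁻¹) := by
      rw [sc_mul, sc_inv, ← hmc, ← bl_sc]
      group
    rwa [h2] at h1
  have hsc : ∀ b : ZMod p ⊕ J → (ZMod p)ˣ, ∏ i, b i = 1 → T ι (sc b) ∈ H := by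
    intro b hb
    have h1 : b = ∏ i, (Pi.mulSingle i (b i) * (Pi.mulSingle (Sum.inl 0) (b i))⁻¹) := by
      rw [Finset.prod_mul_distrib, Finset.univ_prod_mulSingle, Finset.prod_inv_distrib]
      have h2 : ∏ i, (Pi.mulSingle (Sum.inl 0) (b i) : ZMod p ⊕ J → (ZMod p)ˣ) = 1 := by
        have h3 := (map_prod (MonoidHom.mulSingle (fun _ : ZMod p ⊕ J => (ZMod p)ˣ) (Sum.inl 0)) b Finset.univ)
        rw [hb, map_one] at h3
        exact h3.symm
      rw [h2, inv_one, mul_one]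
    have h2 : ∀ i, (Pi.mulSingle i (b i) * (Pi.mulSingle (Sum.inl 0) (b i))⁻¹ : ZMod p ⊕ J → (ZMod p)ˣ) ∈
        H.comap ((T ι).comp (scHom (ZMod p ⊕ J) p)) := by
      intro i
      by_cases hi : i = Sum.inl 0
      · rw [hi, mul_inv_cancel]
        exact Subgroup.one_mem _
      · exact hsc2 i (Sum.inl 0) (b i) hi
    have h3 := Subgroup.prod_mem (H.comap ((T ι).comp (scHom (ZMod p ⊕ J) p))) (t := Finset.univ) (fun i _ => h2 i)
    rw [← h1] at h3
    exact h3
  -- the end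
  obtain ⟨f, a, σ, hgm⟩ := norm_base hout hg
  set u := ∏ i, a i with hu
  have htt : T ι (T (kap J p) (tt u)) ∈ H := by
    rw [hH]
    exact tt_mem hp2 hout hQ hP hS hE hEF hB u
  set s : ZMod p ⊕ J → (ZMod p)ˣ := Sum.elim (fun _ => u) (fun _ : J => (1 : (ZMod p)ˣ)) with hs
  set τ := σ * (mu J u⁻¹)⁻¹ with hτ
  have h1 : g = T ι (tr f) * T ι (sc (a * (s⁻¹ ∘ τ.symm))) * T ι (bl τ) * T ι (T (kap J p) (tt u)) := by
    rw [hgm, T_kap_tt, ← map_mul (T ι), ← map_mul (T ι), ← map_mul (T ι), ← hs]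
    congr 1
    rw [sc_mul, ← bl_sc, sc_inv, hτ, bl_mul, bl_inv]
    group
  have hprod : ∏ i, (a * (s⁻¹ ∘ τ.symm)) i = 1 := by
    simp only [Pi.mul_apply, Function.comp_apply, Pi.inv_apply]
    rw [Finset.prod_mul_distrib, ← hu, Finset.prod_inv_distrib]
    have h2 : ∏ i, s (τ.symm i) = ∏ i, s i := Equiv.prod_comp τ.symm s
    rw [h2, Fintype.prod_sum_type, hs]
    simp only [Sum.elim_inl, Sum.elim_inr, Finset.prod_const, Finset.card_univ, ZMod.card, one_pow, mul_one]
    have h3 : u ^ p = u := by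
      have h4 : u ^ (p - 1) = 1 := ZMod.units_pow_card_sub_one_eq_one p u
      calc u ^ p = u ^ (p - 1 + 1) := by congr 1; omega
        _ = u := by rw [pow_succ, h4, one_mul]
    rw [h3, mul_inv_cancel]
  have h2 := hsc _ hprod
  have h3 : T ι (bl τ) ∈ alternatingGroup α := by
    have h4 : T ι (bl τ) = (T ι (tr f) * T ι (sc (a * (s⁻¹ ∘ τ.symm))))⁻¹ * g * (T ι (T (kap J p) (tt u)))⁻¹ := by
      rw [h1]
      group
    rw [h4]
    exact Subgroup.mul_mem _ (Subgroup.mul_mem _ (Subgroup.inv_mem _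
      (Subgroup.mul_mem _ (hHA (htrH f)) (hHA h2))) hgA) (Subgroup.inv_mem _ (hHA htt))
  have h5 : τ ∈ alternatingGroup (ZMod p ⊕ J) := by
    rw [mem_alternatingGroup, sign_T, sign_bl] at h3
    rw [mem_alternatingGroup]
    rcases Int.units_eq_one_or (sign τ) with h6 | h6
    · exact h6
    · rw [h6, hodd.neg_one_pow] at h3
      exact absurd h3 (by decide)
  rw [h1]
  exact H.mul_mem (H.mul_mem (H.mul_mem (htrH f) h2) (hbl _ h5)) htt

/-- **`N_A(S)` induces maps of `E` on `S`.** -/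
theorem normalizer_le_Nn (hp2 : p ≠ 2) (hout : ∀ y z : α, y ∉ Set.range ι → z ∉ Set.range ι → y = z)
    (hQ : shQ J p ≤ P) (hP : IsPGroup p P) (hS : S = (wr ι P).subgroupOf (alternatingGroup α))
    (hSyl : SylIn p S ⊤)
    (hE : E.IsSaturated p) (hEF : E.IsInvariantIn (groupFusionSystem S)) :
    Subgroup.normalizer (S : Set (alternatingGroup α)) ≤ Nn E (le_refl S) := by
  have hp : p.Prime := Fact.out
  have hB : (base ι).subgroupOf (alternatingGroup α) ≤ S := by
    rw [hS]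
    apply Subgroup.comap_mono
    rintro _ ⟨f, σ, hσ, rfl⟩
    rw [Subgroup.mem_bot] at hσ
    subst hσ
    exact ⟨f, 1, Subgroup.one_mem _, rfl⟩
  have hSp : IsPGroup p S := by
    rw [hS]
    exact (isPGroup_wr hP).comap_of_injective _ (Subgroup.subtype_injective _)
  have hwA : wr ι P ≤ alternatingGroup α := le_alternating_of_isPGroup hp2 (isPGroup_wr hP)
  have hbA : base ι ≤ alternatingGroup α := by
    refine le_trans ?_ hwA
    rintro _ ⟨f, σ, hσ, rfl⟩
    rw [Subgroup.mem_bot] at hσ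
    subst hσ
    exact ⟨f, 1, Subgroup.one_mem _, rfl⟩
  intro g hg
  -- `g` normalises the base group
  have h1 : ∀ i, (g : Perm α) * T ι (tr (Pi.single i (1 : ZMod p))) * (g : Perm α)⁻¹ ∈ base ι := by
    intro i
    have h2 : T ι (tr (Pi.single i (1 : ZMod p))) ∈ alternatingGroup α := hbA (mem_base.2 ⟨_, rfl⟩)
    have h3 : (⟨_, h2⟩ : alternatingGroup α) ∈ S := hB (by
      rw [Subgroup.mem_subgroupOf]
      exact mem_base.2 ⟨_, rfl⟩)
    have h4 := (Subgroup.mem_normalizer_iff.1 hg _).1 h3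
    have h4' : g * ⟨_, h2⟩ * g⁻¹ ∈ (wr ι P).subgroupOf (alternatingGroup α) := by
      rw [← hS]
      exact h4
    rw [Subgroup.mem_subgroupOf] at h4'
    obtain ⟨f, σ, hσ, h5⟩ := h4'
    have h6 : (g : Perm α) * T ι (tr (Pi.single i (1 : ZMod p))) * (g : Perm α)⁻¹ = T ι (tr f * bl σ) := h5
    have h7 : σ = 1 := by
      apply bl_eq_one_of_cycle (ι := ι) (f := f)
      · rw [← h6]
        exact (oneCycle_single ι i).conj _
      · rw [← h6, conj_pow, ← map_pow, tr_pow_q, map_one, mul_one, mul_inv_cancel]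
    rw [h6, h7, bl_one, mul_one]
    exact mem_base.2 ⟨f, rfl⟩
  have h2 : ∀ x ∈ base ι, (g : Perm α) * x * (g : Perm α)⁻¹ ∈ base ι := by
    intro x hx
    obtain ⟨f, rfl⟩ := mem_base.1 hx
    -- the set of good translations is a subgroup
    let K : AddSubgroup (ZMod p ⊕ J → ZMod p) :=
      { carrier := {f | (g : Perm α) * T ι (tr f) * (g : Perm α)⁻¹ ∈ base ι}
        add_mem' := by
          intro a b ha hb
          have h3 := (base ι).mul_mem ha hb
          have h4 : (g : Perm α) * T ι (tr a) * (g : Perm α)⁻¹ * ((g : Perm α) * T ι (tr b) * (g : Perm α)⁻¹) =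
              (g : Perm α) * T ι (tr (a + b)) * (g : Perm α)⁻¹ := by
            rw [tr_add, map_mul]
            group
          rw [h4] at h3
          exact h3
        zero_mem' := by
          show (g : Perm α) * T ι (tr 0) * (g : Perm α)⁻¹ ∈ base ι
          rw [tr_zero, map_one, mul_one, mul_inv_cancel]
          exact (base ι).one_mem
        neg_mem' := by
          intro a ha
          have h3 := (base ι).inv_mem ha
          have h4 : ((g : Perm α) * T ι (tr a) * (g : Perm α)⁻¹)⁻¹ =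
              (g : Perm α) * T ι (tr (-a)) * (g : Perm α)⁻¹ := by
            rw [tr_neg, map_inv]
            group
          rw [h4] at h3
          exact h3 }
    have h3 : f ∈ K := by
      rw [← Finset.univ_sum_single f]
      refine AddSubgroup.sum_mem K (fun i _ => ?_)
      have h4 : (Pi.single i (f i) : ZMod p ⊕ J → ZMod p) = (f i).val • Pi.single i 1 := by
        rw [← Pi.single_smul]
        simp
      rw [h4]
      exact AddSubgroup.nsmul_mem K (h1 i) _
    exact h3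
  have h3 := base_norm_mem hp2 hout hQ hP hS hSyl hE hEF hB g.2 h2
  obtain ⟨y, hy, hyg⟩ := h3
  have h4 : y = g := Subtype.ext hyg
  subst h4
  refine Nn_up' hSp hE hEF.1 hB le_rfl ?_ hg hy
  exact centralizer_subgroupOf_le hbA (fun g hg => cent_base hout hg)

end main

end Cfsg.Agent.H761
end
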